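import Cfsg.Agent.BG.I06

/-! Bridges between the ambient quotient `X /ₛ K` and `QuotientGroup.mk'`. -/

set_option autoImplicit false

namespace CA.BG

open Cfsg CA.FG

universe u

variable {G : Type u} [Group G] [Finite G]

theorem map_mk'_le_pCore {p : ℕ} (hp : p.Prime) {K K' A : Subgroup G} [K.Normal] (e : K' = K)
    (h : A /ₛ K' ≤ pCoreOf p (⊤ /ₛ K')) : A.map (QuotientGroup.mk' K) ≤ pCore p (G ⧸ K) := by
  obtain rfl := e.symm
  have nK := normal_iff_top_le_norm.1 ‹K.Normal›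
  have n := normalIn_top.1 (quotPre_normalIn_of (normalIn_top.2 ‹_›) (pcore_normal {p} (⊤ /ₛ K)))
  refine (Subgroup.map_mono ((quot_le_iff (le_top.trans nK)).1 h)).trans ?_
  rw [pCore_eq_top hp]
  refine pcore_max (normalIn_top.2 (n.map _ (QuotientGroup.mk'_surjective K))) ?_
  obtain ⟨e⟩ := map_mk'_equiv_quot' K (quotPre K (pCoreOf p (⊤ /ₛ K)))
  have := pcore_pGrp p (⊤ /ₛ K)
  rw [← quot_quotPre (pCoreOf p (⊤ /ₛ K))] at this
  exact PiNat.of_dvd this (Nat.card_congr e.toEquiv).dvd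

theorem map_mk'_le_pCore' {p : ℕ} (hp : p.Prime) {K K' A N : Subgroup G} (nK : K ⊲ N)
    [(K.subgroupOf N).Normal] (e : K' = K) (h : A /ₛ K' ≤ pCoreOf p (N /ₛ K')) (hA : A ≤ N) :
    (A.subgroupOf N).map (QuotientGroup.mk' (K.subgroupOf N)) ≤ pCore p (N ⧸ K.subgroupOf N) := by
  obtain rfl := e.symm
  have n := quotPre_normalIn_of nK (pcore_normal {p} (N /ₛ K))
  have n' : ((quotPre K (pCoreOf p (N /ₛ K))).subgroupOf N).Normal :=
    (Subgroup.normal_subgroupOf_iff_le_normalizer n.1).2 n.2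
  refine (Subgroup.map_mono (Subgroup.comap_mono ((quot_le_iff (hA.trans nK.2)).1 h))).trans ?_
  rw [pCore_eq_top hp]
  refine pcore_max (normalIn_top.2 (n'.map _ (QuotientGroup.mk'_surjective _))) ?_
  obtain ⟨e⟩ := map_mk'_equiv_quot (K.subgroupOf N) ((quotPre K (pCoreOf p (N /ₛ K))).subgroupOf N)
  have := pcore_pGrp p (N /ₛ K)
  rw [← quot_quotPre (pCoreOf p (N /ₛ K))] at this
  have e' := Nat.card_congr e.toEquiv
  rw [Subgroup.map_subgroupOf_eq_of_le nK.1, Subgroup.map_subgroupOf_eq_of_le n.1] at e'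
  exact PiNat.of_dvd this e'.dvd

theorem puigOf_top : puigOf (⊤ : Subgroup G) = puigSubgroup G := by
  rw [P06.puigOf_eq]; exact iInf_congr fun n => P06.puigAt_top _

theorem puigInfOf_top : puigInfOf (⊤ : Subgroup G) = puigLower G := by
  rw [P06.puigInfOf_eq]; exact iSup_congr fun n => P06.puigAt_top _

theorem puigSucc_top (X : Subgroup G) : puigSucc ⊤ X = puigStep X :=
  congrArg sSup (Set.ext fun _ => and_iff_right le_top)

end CA.BG
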