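/-
Type-level forms of results of B & G sections 4, 5.
-/
import Cfsg.Agent.BG.P05b

set_option autoImplicit false

namespace CA.BG.P05

open Cfsg CA.BG.P04 Subgroup
open CA.FG hiding abelem_bot abelem_map abelem_of_card_prime abelem_sup abelem_zpowers abelian_of_card_le_sq
  card_ohm1_of_cyclic der_le_cent_of_cyclic exists_holomorph mem_ohm1 norm_ohm1 ohm1_abelem ohm1_eq_of_le
  ohm1_le ohm1_le_iff ohm1_map_le ohm1_map_of_inj ohm1_mono ohm1_ne_bot pRank_le_iff rank_le_iff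

universe u

variable {G : Type u} [Group G] [Finite G]

theorem type_level_p_structure {p : ℕ} (hp : p.Prime) (hodd : Odd (Nat.card G))
    (h : IsPiHallOf {p}ᶜ (pPrimeCoreOf p ⁅(⊤ : Subgroup G), (⊤ : Subgroup G)⁆)
      ⁅(⊤ : Subgroup G), (⊤ : Subgroup G)⁆ ∧
      (∀ q : ℕ, q.Prime → q ∣ (pPrimeCoreOf p (⊤ : Subgroup G)).relIndex ⊤ → q ≤ p) ∧
      ⁅(⊤ : Subgroup G), (⊤ : Subgroup G)⁆ ≤ pPrimePCoreOf p ⊤ ∧
      PiNat {p}ᶜ ((pPrimePCoreOf p (⊤ : Subgroup G)).relIndex ⊤)) :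
    (∀ q : ℕ, q.Prime → q ∣ (Cfsg.pPrimeCore p G).index → q ≤ p) ∧
      ((p = 3 ∨ ∀ q : ℕ, q.Prime → q ∣ Nat.card G → p ≤ q) → Cfsg.HasNormalPComplement p G) ∧
      Cfsg.HasNormalPComplement p ↥(_root_.commutator G) ∧
      (∀ L : Subgroup ↥(_root_.commutator G), (Nat.card L).Coprime p →
        L ≤ Cfsg.pPrimeCore p ↥(_root_.commutator G)) ∧
      _root_.commutator G ≤ Cfsg.pPrimePCore p G ∧ ((Cfsg.pPrimePCore p G).index).Coprime p := by
  obtain ⟨h1, h2, h3, h4⟩ := h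
  rw [pPrimeCore_eq_top hp, pPrimePCore_eq_top hp, hasNormalPComplement_top_iff hp,
    hasNormalPComplement_iff hp, ← piNat_compl_singleton_iff_coprime hp, ← relIndex_top_right,
    ← relIndex_top_right]
  refine ⟨h2, fun hmin => p_complement_of_max_pdiv (by rwa [card_top]) (by rwa [card_top]) h2, h1,
    fun L hL => ?_, h3, h4⟩
  rw [← map_le_map_iff_of_injective (subtype_injective _), pPrimeCore_map_subtype hp]
  exact h1.le_of_normal (pcore_norm _ _)
    (IsPiGrp.map ((piNat_compl_singleton_iff_coprime hp).2 hL) _) (map_subtype_le _)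

end CA.BG.P05
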