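import Cfsg.Agent.BG.P07a

/-! The Baer trick and the transitivity theorem for groups with `p`-constrained `p`-local subgroups. -/

set_option autoImplicit false

namespace CA.BG.Trans

open Cfsg CA.FG CA.BG.P07
open scoped commutatorElement

universe u

/-- the Baer trick -/
theorem exists_baer {P : Type u} [Group P] {h : ℕ} (hc : ∀ x y : P, ⁅x, y⁆ ∈ Subgroup.center P)
    (he : ∀ x : P, x ^ (2 * h + 1) = 1) : ∃ _ : CommGroup (PLift P),
      (∀ x y : PLift P, (x * y).down = ⁅x.down, y.down⁆ ^ h * (x.down * y.down)) ∧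
      (1 : PLift P).down = 1 := by
  let c : P → P → Subgroup.center P := fun x y => ⟨_, hc x y⟩
  have z : ∀ (a : Subgroup.center P) (x : P), x * a = a * x := fun a x => Subgroup.mem_center_iff.1 a.2 x
  have l : ∀ x y w, c (x * y) w = c x w * c y w := fun x y w => Subtype.ext (by
    change ⁅x * y, w⁆ = ⁅x, w⁆ * (c y w : P)
    rw [commutatorElement_mul_left_eq_conj_mul, show ⁅y, w⁆ = (c y w : P) from rfl, z (c y w) x,
      mul_inv_cancel_right, z])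
  have s : ∀ x y, c x y = (c y x)⁻¹ := fun x y => Subtype.ext (commutatorElement_inv _ _).symm
  have o : ∀ (a : Subgroup.center P) w, c a w = 1 := fun a w =>
    Subtype.ext (commutatorElement_eq_one_iff_mul_comm.2 (z a w).symm)
  have e : ∀ x y, ⁅x, y⁆ ^ h = ((c x y ^ h :) : P) := fun x y => rfl
  let _ : Mul (PLift P) := ⟨fun x y => ⟨⁅x.down, y.down⁆ ^ h * (x.down * y.down)⟩⟩
  let _ : One (PLift P) := ⟨⟨1⟩⟩
  let _ : Inv (PLift P) := ⟨fun x => ⟨x.down⁻¹⟩⟩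
  let _ : Group (PLift P) := Group.ofLeftAxioms (fun x y w => congrArg PLift.up (by
      change ⁅⁅_, _⁆ ^ h * _, _⁆ ^ h * (⁅_, _⁆ ^ h * _ * _) = ⁅_, ⁅_, _⁆ ^ h * _⁆ ^ h * (_ * (⁅_, _⁆ ^ h * _))
      rw [e x.down, e y.down, e, e, l, l, o, s x.down (_ * _), l, l, o, ← mul_assoc x.down, z, mul_assoc,
        mul_assoc, mul_assoc, ← mul_assoc, ← mul_assoc _ (↑(c y.down w.down ^ h) : P), ← Subgroup.coe_mul,
        ← Subgroup.coe_mul, s y.down x.down, s w.down x.down]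
      congr 2
      have k : ∀ a b : Subgroup.center P, Commute a b := fun a b => Subtype.ext (z b a)
      rw [one_mul, one_mul, mul_inv_rev, inv_inv, inv_inv, (k _ _).mul_pow, (k _ _).mul_pow, mul_assoc,
        mul_assoc, (k (c y.down w.down ^ h) _).eq]))
    (fun x => congrArg PLift.up (by change ⁅(1 : P), _⁆ ^ h * (1 * _) = _; simp))
    (fun x => congrArg PLift.up (by
      change ⁅x.down⁻¹, _⁆ ^ h * (x.down⁻¹ * _) = 1
      simp [commutatorElement_def]))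
  refine ⟨{ mul_comm := fun x y => congrArg PLift.up ?_ }, fun _ _ => rfl, rfl⟩
  rw [show x.down * y.down = ⁅x.down, y.down⁆ * (y.down * x.down) by simp [commutatorElement_def],
    ← mul_assoc, ← pow_succ, ← commutatorElement_inv x.down, inv_pow, mul_left_inj, eq_inv_iff_mul_eq_one,
    ← pow_add, ← he ⁅x.down, y.down⁆]
  congr 1
  omega

theorem baer_fix {P A : Type u} [Group P] [Finite P] [Group A] [Finite A] {p : ℕ} (hp : p.Prime)
    (hp2 : p ≠ 2) (hc : ∀ x y : P, ⁅x, y⁆ ∈ Subgroup.center P) (he : ∀ x : P, x ^ p = 1)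
    (ρ : A →* MulAut P) {Y E : Subgroup A} (nY : E ≤ 𝒩(Y)) (co : (Nat.card Y).Coprime p)
    (pE : IsPGroup p E) (hf : ∀ x, (∀ e ∈ E, ρ e x = x) → ∀ y ∈ Y, ρ y x = x) :
    ∀ y ∈ Y, ∀ x, ρ y x = x := by
  classical
  have := Fact.mk hp
  have := Fintype.ofFinite Y
  obtain ⟨h, rfl⟩ := hp.odd_of_ne_two hp2
  obtain ⟨_, hm, h1⟩ := exists_baer hc he
  let σ : A → PLift P →* PLift P := fun a => MonoidHom.mk' (fun v => ⟨ρ a v.down⟩) fun v w =>
    PLift.down_injective (by simp [hm, map_commutatorElement])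
  have σm : ∀ a b v, σ (a * b) v = σ a (σ b v) := fun a b v => PLift.down_injective (by simp [σ])
  have pw : ∀ (v : PLift P) n, (v ^ n).down = v.down ^ n := fun v n => by
    induction n with
    | zero => simpa using h1
    | succ n ih => rw [pow_succ, hm, ih, ((Commute.refl _).pow_left n).commutator_eq, one_pow, one_mul,
        pow_succ]
  have ex : ∀ v : PLift P, v ^ (2 * h + 1) = 1 := fun v => PLift.down_injective (by rw [pw, he, h1])
  let π : PLift P →* PLift P := ∏ y : Y, σ y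
  have πa : ∀ v, π v = ∏ y : Y, σ y v := fun v => MonoidHom.finsetProd_apply ..
  have πE : ∀ e ∈ E, ∀ v, π (σ e v) = σ e (π v) := fun e he v => by
    rw [πa, πa, map_prod]
    refine (Fintype.prod_equiv (Y.normalizerMonoidHom ⟨e, nY he⟩).toEquiv _ _ fun y => ?_).symm
    rw [← σm, ← σm]
    congr 2
    simp
  have inj : π.ker = ⊥ := by
    by_contra nt
    let _ : MulAction E π.ker :=
      { smul := fun e s => ⟨σ e s, by rw [MonoidHom.mem_ker, πE _ e.2, s.2, map_one]⟩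
        one_smul := fun s => Subtype.ext (PLift.down_injective (by
          change ρ (1 : A) _ = _; simp))
        mul_smul := fun a b s => Subtype.ext (σm _ _ _) }
    obtain ⟨x, hx, x1⟩ := exists_mem_ne_one nt
    obtain ⟨s, hs, s1⟩ := pE.exists_fixed_point_of_prime_dvd_card_of_fixed_point π.ker
      (orderOf_eq_prime (ex x) x1 ▸ Subgroup.orderOf_dvd_natCard _ hx) (a := 1)
      fun e => Subtype.ext (map_one (σ e))
    have f := hf s.1.down fun e he => congrArg (fun s : π.ker => s.1.down) (hs ⟨e, he⟩)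
    have : s.1 ^ Nat.card Y = 1 := by
      rw [← s.2, πa, Finset.prod_congr rfl fun (y : Y) _ =>
        show σ y s.1 = s.1 from PLift.down_injective (f y y.2)]
      simp
    exact s1 (Subtype.ext (orderOf_eq_one_iff.1 (Nat.eq_one_of_dvd_coprimes co
      (orderOf_dvd_of_pow_eq_one this) (orderOf_dvd_of_pow_eq_one (ex _)))).symm)
  intro y hy x
  have : π (σ y ⟨x⟩) = π ⟨x⟩ := by
    rw [πa, πa]
    exact Fintype.prod_equiv (Equiv.mulRight ⟨y, hy⟩) _ _ fun z => (σm _ _ _).symm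
  exact congrArg PLift.down ((MonoidHom.ker_eq_bot_iff π).1 inj this)

variable {G : Type u} [Group G] [Finite G] {p : ℕ}

theorem odd_fix (hp : p.Prime) (hp2 : p ≠ 2) {T Y E : Subgroup G} (pT : IsPGrp p T)
    (p'Y : IsPiGrp {p}ᶜ Y) (pE : IsPGrp p E) (nTY : Y ≤ 𝒩(T)) (nTE : E ≤ 𝒩(T)) (nYE : E ≤ 𝒩(Y))
    (h : T ⊓ 𝒞(E) ≤ 𝒞(Y)) : Y ≤ 𝒞(T) := by
  by_cases nt : T = ⊥
  · rw [nt]; exact fun _ _ x hx => by rw [Subgroup.mem_bot.1 hx]; simp
  obtain ⟨k, hk⟩ := (pGrp_iff_card hp).1 pT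
  obtain ⟨H, ch, -, -, c2, ex, hH, -⟩ := critical_odd hp pT (hk ▸ (hp.odd_of_ne_two hp2).pow) nt
  refine hH Y nTY p'Y fun y hy x hx => ?_
  have := baer_fix hp hp2 (P := H) (fun x y => Subgroup.mem_center_iff.2 fun w => Subtype.ext
      ((Subgroup.commutator_eq_bot_iff_le_centralizer.1 c2)
        (Subgroup.commutator_mem_commutator x.2 y.2) w w.2))
    (fun x => Subtype.ext (ex x x.2)) H.normalizerMonoidHom (Y := Y.subgroupOf _) (E := E.subgroupOf _)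
    (fun e he => mem_norm_of_forall fun y hy =>
      Subgroup.mem_subgroupOf.2 (conj_mem_of_mem_norm (nYE he) hy))
    ((piNat_compl_singleton_iff_coprime hp).1 (p'Y.subgroupOf _)) ((pE.subgroupOf _).isPGroup hp)
    (fun x hx y hy => Subtype.ext (mul_inv_eq_iff_eq_mul.2 (h ⟨ch.le x.2, fun e he =>
      mul_inv_eq_iff_eq_mul.1 (congrArg Subtype.val (hx ⟨e, ch.norm nTE he⟩ he))⟩ y hy)))
    ⟨y, ch.norm nTY hy⟩ hy ⟨x, hx⟩
  exact (mul_inv_eq_iff_eq_mul.1 (congrArg Subtype.val this)).symm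

theorem class2_fix {T Y E : Subgroup G} (pT : IsPGrp p T)
    (p'Y : IsPiGrp {p}ᶜ Y) (pE : IsPGrp p E) (nTY : Y ≤ 𝒩(T)) (nTE : E ≤ 𝒩(T)) (nYE : E ≤ 𝒩(Y))
    (c2 : ⁅T, E⁆ ≤ 𝒞(E)) (h : T ⊓ 𝒞(E) ≤ 𝒞(Y)) : Y ≤ 𝒞(T) := by
  have co := IsPiGrp.coprime pT p'Y
  have sK : ⁅T, Y⁆ ≤ T := comm_le_left nTY
  have e := coprime_commGid nTY co (Or.inl pT.sol)
  have nY : Y ≤ 𝒩(⁅T, Y⁆) := norm_comm nTY Subgroup.le_normalizer
  have nE : E ≤ 𝒩(⁅T, Y⁆) := norm_comm nTE nYE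
  have hE : ⁅⁅T, Y⁆, E⁆ ≤ ⁅T, Y⁆ ⊓ 𝒞(Y) := le_inf (comm_le_left nE)
    ((le_inf ((comm_le_left nE).trans sK) ((Subgroup.commutator_mono sK le_rfl).trans c2)).trans h)
  have hC : ⁅⁅T, Y⁆, Y ⊓ 𝒞(E)⁆ = ⊥ := by
    rw [Subgroup.commutator_comm, Subgroup.commutator_eq_bot_iff_le_centralizer]
    exact (coprime_A_times_B pT pE (p'Y.inf_left _) (inf_le_left.trans nTY) nTE inf_le_right
      (inf_le_left.trans (Subgroup.le_centralizer_iff.1 h))).trans (cent_anti sK)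
  rw [← Subgroup.commutator_eq_bot_iff_le_centralizer, Subgroup.commutator_comm]
  have pK : IsPGrp p ⁅T, Y⁆ := pT.of_le sK
  generalize ⁅T, Y⁆ = K at *
  by_contra nt
  refine (der_lt_of_sol pK.sol nt).not_ge ?_
  have n1 := (charIn_der K).normalIn.2
  have n2 := (charIn_der K).norm nY
  have n3 := (charIn_der K).norm nE
  have t := coprime_abel_cent_TI (quot_norm ⁅K, K⁆ nY) (coprime_quot _ (IsPiGrp.coprime pK p'Y))
    ((quot_abelian_iff n1).2 le_rfl)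
  rw [← quot_comm n1 n2, e] at t
  have h1 : E /ₛ ⁅K, K⁆ ≤ 𝒞(K /ₛ ⁅K, K⁆) := by
    rw [quot_cent_iff' n3 n1, ← quot_eq_bot_iff ((comm_le_left nE).trans n1), eq_bot_iff, ← t]
    exact (quot_mono _ hE).trans (quot_inf_cent_le _ _)
  have h2 : Y /ₛ ⁅K, K⁆ ≤ 𝒞(K /ₛ ⁅K, K⁆) := by
    rw [← coprime_cent_prod nYE (IsPiGrp.coprime pE p'Y).symm (Or.inr pE.sol),
      quot_sup ((comm_le_left nYE).trans n2) (inf_le_left.trans n2), quot_comm n2 n3]
    refine sup_le ((Subgroup.commutator_mono le_rfl h1).trans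
      (comm_le_right (norm_cent (quot_norm _ nY)))) ?_
    rw [quot_cent_iff' (inf_le_left.trans n2) n1, hC]
    exact bot_le
  rw [quot_cent_iff' n2 n1, e] at h2
  exact h2

/-- a `p'`-subgroup normalized by `E` lies in `O_{p'}` of any `p`-constrained overgroup -/
theorem le_p'core (hp : p.Prime) {H Y E : Subgroup G} (cstr : PConstrained p H)
    (h2 : p = 2 → ∀ S, IsSylowOf p S H → ⁅S, S⁆ ≤ 𝒞(S)) (sEH : E ≤ H) (pE : IsPGrp p E)
    (sylE : IsSylowOf p E (H ⊓ 𝒞(E))) (sYH : Y ≤ H) (p'Y : IsPiGrp {p}ᶜ Y) (nYE : E ≤ 𝒩(Y)) :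
    Y ≤ pPrimeCoreOf p H := by
  obtain ⟨S, sylS, sES⟩ := sylow_superset hp pE sEH
  have nO := pcore_normal {p}ᶜ H
  have pO := pcore_piGrp {p}ᶜ H
  have sylP := IsPiHallOf.inf_normal sylS (pcore2_normal {p}ᶜ {p} H)
  have hC := cstr _ sylP
  have eP := pcore_sup_eq_pcore2 sylP
  have eT := pcore2_quot {p}ᶜ {p} H
  have pP := sylP.piGrp
  have sP : S ⊓ piCore2Of {p}ᶜ {p} H ≤ S := inf_le_left
  change H ⊓ 𝒞(S ⊓ piCore2Of {p}ᶜ {p} H) ≤ piCore2Of {p}ᶜ {p} H at hC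
  generalize S ⊓ piCore2Of {p}ᶜ {p} H = P at *
  have nP := (sP.trans sylS.le).trans nO.2
  rw [← eP, quot_sup_self_left nP] at eT
  have nT := pcore_norm {p} (H /ₛ piCoreOf {p}ᶜ H)
  rw [← eT] at nT
  change Y ≤ piCoreOf {p}ᶜ H
  generalize piCoreOf {p}ᶜ H = O at *
  have c1 := coprime_subcent_quotient_pgroup pP nP (IsPiGrp.coprime pP pO).symm nO.1
  have c2 := coprime_subcent_quotient_pgroup pE (sEH.trans nO.2) (IsPiGrp.coprime pE pO).symm nO.1
  have nY := (quot_mono O sYH).trans nT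
  have nE := (quot_mono O sEH).trans nT
  have ti := IsPiGrp.inf_eq_bot (pP.quot O) (p'Y.quot O)
  have f : (P /ₛ O) ⊓ 𝒞(E /ₛ O) ≤ 𝒞(Y /ₛ O) := by
    have s1 : (P /ₛ O) ⊓ 𝒞(E /ₛ O) ≤ E /ₛ O := (sylE.quot (inf_le_left.trans nO.2)).le_of_le_norm
      ((pP.quot O).inf_left _) (c2 ▸ inf_le_inf_right _ (quot_mono O (sP.trans sylS.le)))
      (inf_le_right.trans (cent_le_norm _))
    rw [← Subgroup.commutator_eq_bot_iff_le_centralizer, eq_bot_iff, ← ti]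
    exact le_inf ((Subgroup.commutator_mono inf_le_left le_rfl).trans (comm_le_left nY))
      ((Subgroup.commutator_mono s1 le_rfl).trans (comm_le_right (quot_norm O nYE)))
  have g : Y /ₛ O ≤ 𝒞(P /ₛ O) := by
    by_cases e : p = 2
    · refine class2_fix (pP.quot O) (p'Y.quot O) (pE.quot O) nY nE (quot_norm O nYE) ?_ f
      rw [← quot_comm nP (sEH.trans nO.2)]
      exact quot_cent O ((Subgroup.commutator_mono sP sES).trans ((h2 e S sylS).trans (cent_anti sES)))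
    · exact odd_fix hp e (pP.quot O) (p'Y.quot O) (pE.quot O) nY nE (quot_norm O nYE) f
  rw [← quot_eq_bot_iff (sYH.trans nO.2), eq_bot_iff, ← ti]
  refine le_inf ((le_inf (quot_mono O sYH) g).trans ?_) le_rfl
  rw [c1, ← quot_sup_self_left nP, eP]
  exact quot_mono O hC

theorem transitivity (hp : p.Prime) {E : Subgroup G} (loc : ∀ x ∈ E, x ≠ 1 → ∃ L, IsPiGrp {p}ᶜ L ∧ E ≤ 𝒩(L) ∧ ∀ Y ≤ 𝒞[x],
      IsPiGrp {p}ᶜ Y → E ≤ 𝒩(Y) → Y ≤ L) (cE : IsMulCommutative E) (sylE : IsSylowOf p E 𝒞(E))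
    {B : Subgroup G} (EB : IsPnElem p 3 B E) {q : ℕ} (hq : q.Prime) (hqp : q ≠ p) {Q₁ Q₂ : Subgroup G}
    (maxQ₁ : Q₁ ∈ maxInvSubgroups ⊤ E {q}) (maxQ₂ : Q₂ ∈ maxInvSubgroups ⊤ E {q}) :
    ∃ k ∈ pPrimeCoreOf p 𝒞(E), Q₂ = Q₁ :^ k := by
  induction hn : Nat.card G - Nat.card ↥(Q₁ ⊓ Q₂) using Nat.strong_induction_on
    generalizing Q₁ Q₂ with
  | _ n ih =>
  subst hn
  by_cases e : Q₂ = Q₁
  · exact ⟨1, one_mem _, by rw [conjg_one, e]⟩
  have pE := sylE.pGrp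
  have q1 : IsPGrp q Q₁ := maxInv_piGrp maxQ₁
  have q2 : IsPGrp q Q₂ := maxInv_piGrp maxQ₂
  have n1 := maxInv_norm maxQ₁
  have n2 := maxInv_norm maxQ₂
  have nD := norm_inf n1 n2
  have lt1 := nilpotent_proper_norm q1.nil (inf_lt_left.2 fun h => e (maxInv_eq maxQ₁ q2 n2 h))
  have lt2 := nilpotent_proper_norm q2.nil (inf_lt_right.2 fun h => e (maxInv_eq maxQ₂ q1 n1 h).symm)
  have qD := q1.inf_left Q₂
  generalize Q₁ ⊓ Q₂ = D at *
  have nN := norm_of_le nD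
  have co : ∀ {Q C : Subgroup G}, IsPGrp q Q → C ≤ E → (Nat.card Q).Coprime (Nat.card C) :=
    fun hQ hC => hQ.coprime_of_ne (pE.of_le hC) hqp
  obtain ⟨C, sCB, iC, ntC⟩ : ∃ C ≤ B, C.relIndex B = p ∧ ¬ Q₁ ⊓ 𝒩(D) ⊓ 𝒞(C) ≤ D := by
    by_contra! h
    exact lt1.not_ge (coprime_abelem_gen_cent_le hp EB.abelem (EB.ne_bot hp (by decide))
      (EB.le.trans (norm_inf n1 nN)) (co (q1.inf_left _) EB.le) fun C hC hi => h C hC hi)
  have EC : IsPnElem p 2 C C := by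
    refine ⟨le_rfl, abelem_of_le EB.abelem sCB, ?_⟩
    have := card_mul_relIndex sCB
    rw [iC, EB.card, pow_succ] at this
    exact Nat.eq_of_mul_eq_mul_right hp.pos this
  obtain ⟨z, hz, ntz, ntQ⟩ : ∃ z ∈ C, z ≠ 1 ∧ ¬ Q₂ ⊓ 𝒩(D) ⊓ 𝒞[z] ≤ D := by
    by_contra! h
    exact lt2.not_ge (coprime_abelian_gen_cent1_le EC.abelian (EC.not_cyclic hp le_rfl)
      ((sCB.trans EB.le).trans (norm_inf n2 nN)) (co (q2.inf_left _) (sCB.trans EB.le)) h)
  have zE := EB.le (sCB hz)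
  have cz : E ≤ 𝒩(𝒞[z]) := norm_of_le (mem_cent_iff_le_cent_singleton.1 (abelian_iff_le_cent.1 cE zE))
  obtain ⟨L, pL, nL, hL⟩ := loc z zE ntz
  have nL' := norm_inf nL nN
  have coL := (IsPiGrp.coprime pE (pL.inf_left 𝒩(D))).symm
  have Qsyl : ∀ Q : Subgroup G, IsPGrp q Q → E ≤ 𝒩(Q) →
      ∃ R, IsSylowOf q R (L ⊓ 𝒩(D)) ∧ E ≤ 𝒩(R) ∧ Q ⊓ 𝒩(D) ⊓ 𝒞[z] ≤ R := fun Q qQ nQ =>
    have n' := norm_inf (norm_inf nQ nN) cz
    have q' : IsPGrp q (Q ⊓ 𝒩(D) ⊓ 𝒞[z]) := (qQ.inf_left _).inf_left _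
    sol_coprime_Sylow_subset hq (Or.inr pE.sol) nL' coL (le_inf (hL _ inf_le_right (q'.piGrp hqp) n')
      (inf_le_left.trans inf_le_right)) q' n'
  obtain ⟨R₁, syl1, nR1, s1⟩ := Qsyl Q₁ q1 n1
  obtain ⟨R₂, syl2, nR2, s2⟩ := Qsyl Q₂ q2 n2
  obtain ⟨h, hh, e2⟩ := sol_coprime_Sylow_trans hq (Or.inr pE.sol) nL' coL syl2 nR2 syl1 nR1
  obtain ⟨Q₃, maxQ₃, s3⟩ := maxInv_exists (IsPiGrp.sup qD syl2.piGrp
    (Or.inr (syl2.le.trans inf_le_right))) (norm_sup nD nR2)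
  obtain ⟨k₁, hk₁, e3⟩ := ih _ (by
      have : D < Q₁ :^ h ⊓ Q₃ := by
        refine lt_of_le_of_ne (le_inf ?_ (le_sup_left.trans s3)) fun e => ntC ?_
        · rw [← conjg_of_mem_norm hh.1.2]; exact conjg_mono h (lt1.le.trans inf_le_left)
        · refine (inf_le_inf_left _ (cent_le_cent_singleton hz)).trans ?_
          rw [← conjg_le_conjg (g := h), conjg_of_mem_norm hh.1.2]
          exact (le_inf (conjg_mono h (inf_le_left.trans inf_le_left))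
            ((conjg_mono h s1).trans (e2.ge.trans (le_sup_right.trans s3)))).trans e.ge
      have := card_lt_of_lt this
      have := (Q₁ :^ h ⊓ Q₃).card_le_card_group
      omega) (maxInv_conj_norm maxQ₁ (cent_le_norm E hh.2)) maxQ₃ rfl
  obtain ⟨k₂, hk₂, e4⟩ := ih _ (by
      have : D < Q₃ ⊓ Q₂ := lt_of_le_of_ne (le_inf (le_sup_left.trans s3) (lt2.le.trans inf_le_left))
        fun e => ntQ ((le_inf (s2.trans (le_sup_right.trans s3)) (inf_le_left.trans inf_le_left)).trans e.ge)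
      have := card_lt_of_lt this
      have := (Q₃ ⊓ Q₂).card_le_card_group
      omega) maxQ₃ maxQ₂ rfl
  have sd := Burnside_normal_complement hp sylE inf_le_left
  refine ⟨k₂ * (k₁ * h), mul_mem hk₂ (mul_mem hk₁ ((sd.complIn.pHall_left (π := {p}ᶜ) (pcore_piGrp _ _)
    (by rw [compl_compl]; exact pE)).mem_of_normal sd.normal.2 (pL.piElt hh.1.1) hh.2)), ?_⟩
  rw [conjg_mul, conjg_mul, ← e3, ← e4]

theorem pConstrained_of (hp : p.Prime) {H : Subgroup G} (h : IsPConstrained p H) : PConstrained p H := by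
  intro P hP x hx
  have e := pPrimePCore_map_subtype hp H
  have l := hP.le.trans (pcore2_le _ _ H)
  rw [← e, ← Subgroup.map_subgroupOf_eq_of_le l] at hP
  obtain ⟨S, hS⟩ := IsSylowOf.exists_sylow ((pHall_map_iff_of_inj H.subtype_injective).1 hP) hp
  have := h S (x := ⟨x, hx.1⟩) (by
    rw [hS]
    exact fun y hy => Subtype.ext (hx.2 y hy))
  exact e ▸ ⟨_, this, rfl⟩

end CA.BG.Trans
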